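import Cfsg.Agent.ChevGrp.Bruhat

/-!
An element of a Chevalley group fixing every root line is in the diagonal subgroup (owner: helper87).
-/

set_option autoImplicit false

namespace Cfsg.Agent.G2Singer

open Cfsg.Lie Cfsg.Agent.ChevGrp

variable {D : ChevalleyDatum} {F : Type*} [Field F] {G : Type*} [Group G] (S : Sys D F G) {len : ℕ → ℕ}

/-- An element of `U` fixing every root vector is trivial. -/
theorem eq_one_of_root_cols (hR : RootTable D len) {u : G} (hu : u ∈ S.Ubar)
    (h : ∀ (a : D.Idx) (s : Fin D.nroots),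
      S.mat u a (Sum.inr s) = (1 : Matrix D.Idx D.Idx F) a (Sum.inr s)) : u = 1 := by
  have hT := hR.posSet_closed
  obtain ⟨L, hL⟩ := hT.exists_enum
  obtain ⟨t, rfl⟩ := S.exists_coef hR hT hL hu
  have hlt : ∀ r ∈ L, r < D.nroots := fun r hr => hT.lt r ((hL.2 r).1 hr)
  have hLT : ∀ r ∈ L, r ∈ posSet D := fun r hr => (hL.2 r).1 hr
  suffices ∀ k : ℕ, ∀ r ∈ posSet D, htHom D (vec D len r) ≤ k → t r = 0 by
    exact S.P_zero hlt fun r hr => this _ r (hLT r hr) (Int.self_le_toNat _)
  intro k
  induction k with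
  | zero =>
    intro r hr h'
    have := hT.pos r hr
    omega
  | succ k ih =>
    intro r hr hk
    by_cases hle : htHom D (vec D len r) ≤ k
    · exact ih r hr hle
    have hreq : htHom D (vec D len r) = (k : ℤ) + 1 := by push_cast at hk; omega
    have e1 := S.P_below hR hT ((k : ℤ) + 1 + 1) hLT t
    have hs : ∀ a ∈ L, Sys.atDeg len (htHom D) ((k : ℤ) + 1) t a ≠ 0 →
        htHom D (vec D len a) = htHom D (vec D len r) := by
      intro a _ h0
      by_contra hne
      rw [hreq] at hne
      simp [Sys.atDeg, hne] at h0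
    have hbe : S.P L (Sys.below len (htHom D) ((k : ℤ) + 1 + 1) t) =
        S.P L (Sys.atDeg len (htHom D) ((k : ℤ) + 1) t) := by
      refine S.P_congr fun a ha => ?_
      simp only [Sys.below, Sys.atDeg]
      by_cases h1 : htHom D (vec D len a) = (k : ℤ) + 1
      · rw [if_pos (by omega), if_pos h1]
      · rw [if_neg h1]
        split_ifs with h2
        · exact ih a (hLT a ha) (by omega)
        · rfl
    set c := (S.P L (Sys.atDeg len (htHom D) ((k : ℤ) + 1) t))⁻¹ * S.P L t with hcdef
    have hc : c ∈ S.US (lvl D len (htHom D) (posSet D) ((k : ℤ) + 1 + 1)) := by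
      unfold Sys.Cg at e1
      rw [hbe] at e1
      have := inv_mem e1
      rw [hcdef]
      simpa using this
    obtain ⟨i, hi⟩ := Sys.exists_coroot_ne (F := F) hR (hT.lt r hr)
    have h1 : Raise D len (htHom D) ((k : ℤ) + 1)
        (S.mat (S.P L (Sys.atDeg len (htHom D) ((k : ℤ) + 1) t))) :=
      S.raise_of_mem hR (fun a h => hT.lt a h.1) (by omega) (fun a h => h.2)
        (S.P_mem (T' := lvl D len (htHom D) (posSet D) ((k : ℤ) + 1)) hlt
          fun a ha h0 => ⟨hLT a ha, by rw [hs a ha h0, hreq]⟩)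
    have h2 : Raise D len (htHom D) ((k : ℤ) + 1 + 1) (S.mat c) :=
      S.raise_of_mem hR (fun a h => hT.lt a h.1) (by omega) (fun a h => h.2) hc
    have e := h (Sum.inl i) ⟨D.neg r, hR.neg_lt r (hT.lt r hr)⟩
    rw [show S.P L t = S.P L (Sys.atDeg len (htHom D) ((k : ℤ) + 1) t) * c by rw [hcdef, mul_inv_cancel_left],
      Sys.mat_mul, raise_mul_apply h1 h2 (by
        simp only [degI, Sum.elim_inl, Sum.elim_inr, hR.deg_neg (htHom D) (hT.lt r hr)]
        omega), h2.eq_one_apply (by
        simp only [degI, Sum.elim_inl, Sum.elim_inr, hR.deg_neg (htHom D) (hT.lt r hr)]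
        omega), add_sub_assoc, sub_self, add_zero, S.P_level_entry hR hT hr i _ hLT hs,
      List.sum_map_ite_eq, List.count_eq_one_of_mem hL.1 ((hL.2 r).2 hr), one_smul] at e
    simp [Sys.atDeg, hreq, -Array.getD_eq_getD_getElem?] at e
    exact e.resolve_left hi

/-- An element fixing every root line is in the diagonal subgroup. -/
theorem mem_Hbar_of_root_diag (hS : Rules D F) (hR : RootTable D len) {g : G} (hg : g ∈ S.Gbar)
    (hd : ∀ (a : D.Idx) (s : Fin D.nroots), a ≠ Sum.inr s → S.mat g a (Sum.inr s) = 0)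
    (hne : ∀ s : Fin D.nroots, S.mat g (Sum.inr s) (Sum.inr s) ≠ 0) : g ∈ S.Hbar := by
  classical
  obtain ⟨b, hb, w, -, v, hv, rfl⟩ := S.mem_NF hS hR hg
  have hvU : v ∈ S.Ubar := S.US_mono (fun r h => h.1) hv
  have hbi := (S.mat_Bbar hS hR (inv_mem hb))
  obtain ⟨cw, -, ew⟩ := S.mat_nW hS hR w
  let σ : Fin D.nroots → Fin D.nroots := fun s => ⟨act D w.reverse s, hR.act_lt _ s.2⟩
  have hσ : Function.Bijective σ := by
    rw [← Finite.injective_iff_bijective]
    intro s s' h
    exact Fin.ext (hR.act_inj w.reverse s.2 s'.2 (congrArg Fin.val h))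
  have key : ∀ s, σ s = s ∨ ht D len s.val < ht D len (σ s).val := by
    intro s
    have h1 : (S.mat b⁻¹ * S.mat (b * S.nW w * v)) (Sum.inr s) (Sum.inr s) ≠ 0 := by
      rw [Matrix.mul_apply, Finset.sum_eq_single (Sum.inr s)]
      · exact mul_ne_zero (hbi.2 _) (hne s)
      · intro c _ hc
        rw [hd c s hc, mul_zero]
      · simp
    rw [← Sys.mat_mul, mul_assoc b, inv_mul_cancel_left, Sys.mat_mul, Matrix.mul_apply] at h1
    obtain ⟨c, -, hc⟩ := Finset.exists_ne_zero_of_sum_ne_zero h1
    have hc1 := left_ne_zero_of_mul hc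
    have hc2 := (S.mat_Bbar hS hR (S.Ubar_le_Bbar hvU)).1 c (Sum.inr s) (right_ne_zero_of_mul hc)
    rcases c with c | c
    · exact absurd (S.mat_nW_inl hS hR w s c) hc1
    · rw [ew] at hc1
      split_ifs at hc1 with hac
      · have hac' : (s : ℕ) = act D w c := by simpa [Fin.ext_iff] using hac
        have hσc : σ s = c := Fin.ext (by simp only [σ]; rw [hac', hR.act_reverse_act w c.2])
        rw [hσc]
        rcases hc2 with h | h
        · exact Or.inl (by simpa using h)
        · exact Or.inr (by simpa [degI, ht] using h)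
      · exact absurd rfl hc1
  have hsum : ∑ s, ht D len (σ s).val = ∑ s : Fin D.nroots, ht D len s.val :=
    hσ.sum_comp (fun s : Fin D.nroots => ht D len s.val)
  have hle : ∀ s ∈ (Finset.univ : Finset (Fin D.nroots)), ht D len s.val ≤ ht D len (σ s).val := by
    intro s _
    rcases key s with h | h
    · rw [h]
    · exact h.le
  have heq := (Finset.sum_eq_sum_iff_of_le hle).1 hsum.symm
  have hw : S.nW w ∈ S.Hbar := S.nW_mem_Hbar_of_act hS hR fun r hr => by
    rcases key ⟨r, hr.1⟩ with h | h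
    · have h' := congrArg (act D w) (congrArg Fin.val h)
      simp only [σ] at h'
      rw [hR.act_act_reverse w hr.1] at h'
      exact h' ▸ hr
    · exact absurd (heq ⟨r, hr.1⟩ (Finset.mem_univ _)) (ne_of_lt h)
  obtain ⟨u, hu, h, hh, e⟩ := (S.mem_Bbar hS hR).1
    (mul_mem (mul_mem hb (S.Hbar_le_Bbar hw)) (S.Ubar_le_Bbar hvU))
  obtain ⟨d, hdn, hmd⟩ := S.mat_Hbar hS hR hh
  suffices hu1 : u = 1 by rw [e, hu1, one_mul]; exact hh
  refine eq_one_of_root_cols S hR hu fun a s => ?_
  by_cases ha : a = Sum.inr s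
  · subst ha
    exact (S.raise_Ubar hR hu).eq_one_apply (by omega)
  · have h1 := hd a s ha
    rw [e, Sys.mat_mul, hmd, Matrix.mul_diagonal] at h1
    rw [Matrix.one_apply_ne ha]
    exact (mul_eq_zero.1 h1).resolve_right (hdn s)

end Cfsg.Agent.G2Singer
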