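import Cfsg.Agent.G2Singer.Hom
import Cfsg.Agent.G2Singer.DiagCent
import Cfsg.Agent.Chev.Rules
import Cfsg.Agent.Chev.Diagonal
import Cfsg.Agent.Chev.FieldFix
import Cfsg.Agent.ChevGrp.Bridge

/-!
The self-centralizing cyclic subgroup of order `q² + q + 1` of `G₂(q)` (owner: helper87).
-/

set_option autoImplicit false

namespace Cfsg.Agent.G2Singer

open Cfsg.Lie Matrix
open scoped MatrixGroups

/-- Exponents of the root weights of the Singer element, modulo `q ^ 2 + q + 1`. -/
def rexp (q : ℕ) : Fin 12 → ℕ :=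
  ![q ^ 2 - 1, q ^ 2 - q, q ^ 2, q ^ 2 + q, q ^ 2 + 1, q - 1, q ^ 2 + 2, q, 1, q + 1, 2 * q + 1, q + 2]

theorem rexp_lt {q : ℕ} (hq : 3 ≤ q) (s : Fin 12) : rexp q s < q ^ 2 + q + 1 := by
  have h2 : 3 * q ≤ q ^ 2 := by nlinarith
  fin_cases s <;> simp [rexp] <;> omega

theorem rexp_ne_zero {q : ℕ} (hq : 3 ≤ q) (s : Fin 12) : rexp q s ≠ 0 := by
  have h2 : 3 * q ≤ q ^ 2 := by nlinarith
  fin_cases s <;> simp [rexp] <;> omega

theorem rexp_injective {q : ℕ} (hq : 3 ≤ q) : Function.Injective (rexp q) := by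
  rcases hq.eq_or_lt with rfl | h4
  · exact fun s s' h => by revert s s'; decide
  · have h2 : 4 * q ≤ q ^ 2 := by nlinarith
    intro s s' h
    fin_cases s <;> fin_cases s' <;> simp [rexp] at h ⊢ <;> omega

/-- The weight of a coordinate for `diag(e)` with inverse `diag(e')`. -/
def wt {L : Type*} [CommRing L] (e e' : Fin 3 → L) : I → L :=
  Sum.elim (fun _ => 1) fun s => match kind s with
    | .inl (i, j) => e i * e' j
    | .inr (.inl i) => e i
    | .inr (.inr i) => e' i

theorem phiMat_diagonal {L : Type*} [CommRing L] (e e' : Fin 3 → L) (he : ∀ i, e i * e' i = 1) :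
    phiMat (Matrix.diagonal e) (Matrix.diagonal e') = Matrix.diagonal (wt e e') := by
  have he' : ∀ b, Matrix.diagonal e * emb L b * Matrix.diagonal e' = wt e e' b • emb L b := by
    intro b
    ext i j
    rw [Matrix.mul_diagonal, Matrix.diagonal_mul, Matrix.smul_apply, smul_eq_mul]
    rcases b with k | s
    · rcases eq_or_ne i j with rfl | hij
      · simp only [wt, Sum.elim_inl, one_mul]
        rw [mul_comm (e i), mul_assoc, he, mul_one]
      · fin_cases k <;> simp [emb, hij]
    · rcases hs : kind s with ⟨x, y⟩ | x | x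
      · by_cases h : x = i ∧ y = j
        · obtain ⟨rfl, rfl⟩ := h
          simp [emb, wt, hs]
        · simp [emb, hs, h, Matrix.single]
      · simp [emb, hs]
      · simp [emb, hs]
  have hv : ∀ (b : I) (i : Fin 3), (Matrix.diagonal e * prV L) i b = wt e e' b * prV L i b := by
    intro b i
    rw [Matrix.diagonal_mul]
    rcases b with k | s
    · simp [prV]
    · by_cases h : kind s = .inr (.inl i)
      · simp [prV, wt, h]
      · simp [prV, h]
  have hw : ∀ (b : I) (i : Fin 3),
      ((Matrix.diagonal e')ᵀ * prW L) i b = wt e e' b * prW L i b := by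
    intro b i
    rw [Matrix.diagonal_transpose, Matrix.diagonal_mul]
    rcases b with k | s
    · simp [prW]
    · by_cases h : kind s = .inr (.inr i)
      · simp [prW, wt, h]
      · simp [prW, h]
  refine Matrix.ext fun a b => ?_
  have h1 : phiMat (1 : Matrix (Fin 3) (Fin 3) L) 1 a b = (1 : Matrix I I L) a b := by rw [phiMat_one]
  simp only [phiMat, Matrix.of_apply, one_mul, mul_one, Matrix.transpose_one] at h1
  simp only [phiMat, Matrix.of_apply, he', hv, hw]
  have h2 : rowVal a (wt e e' b • emb L b) (fun i => wt e e' b * prV L i b)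
      (fun i => wt e e' b * prW L i b) =
      wt e e' b * rowVal a (emb L b) (fun i => prV L i b) (fun i => prW L i b) :=
    rowVal_smul (wt e e' b) a (emb L b) (fun i => prV L i b) fun i => prW L i b
  rw [h2, Matrix.one_mul, Matrix.one_mul] at *
  rw [h1]
  by_cases hab : a = b
  · subst hab; simp
  · simp [hab]

/-- The matrix of an element of the general linear group of the adjoint module. -/
def mv {K : Type*} [Field K] (g : GL chevG2.Idx K) : Matrix I I K := g.val

theorem mv_mul {K : Type*} [Field K] (g h : GL chevG2.Idx K) : mv (g * h) = mv g * mv h := rfl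

theorem mv_one {K : Type*} [Field K] : mv (1 : GL chevG2.Idx K) = 1 := rfl

theorem mv_inv_mul {K : Type*} [Field K] (g : GL chevG2.Idx K) : mv g⁻¹ * mv g = 1 := by
  rw [← mv_mul, inv_mul_cancel, mv_one]

theorem mv_inj {K : Type*} [Field K] {g h : GL chevG2.Idx K} : mv g = mv h ↔ g = h :=
  ⟨fun e => Units.ext e, fun e => e ▸ rfl⟩

theorem mv_pow {K : Type*} [Field K] (g : GL chevG2.Idx K) (n : ℕ) : mv (g ^ n) = mv g ^ n := by
  induction n with
  | zero => rw [pow_zero, pow_zero, mv_one]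
  | succ n ih => rw [pow_succ, pow_succ, mv_mul, ih]

theorem map_xMat {F E : Type*} [Field F] [Field E] (f : F →+* E) (r : Fin 12) (t : F) :
    (chevG2.xMat F r t).map f = chevG2.xMat E r (f t) := by
  refine Matrix.ext fun (a b : I) => ?_
  show f (chevG2.xMat F r t a b) = _
  rw [xMat_eq_xP, xMat_eq_xP, map_list_sum, List.map_map]
  congr 1
  refine List.map_congr_left fun km _ => ?_
  simp

theorem map_mem_group {F E : Type*} [Field F] [Field E] (f : F →+* E) {g : GL chevG2.Idx F}
    (hg : g ∈ chevG2.group F) : Matrix.GeneralLinearGroup.map f g ∈ chevG2.group E := by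
  have hle : chevG2.group F ≤
      (chevG2.group E).comap (Matrix.GeneralLinearGroup.map (n := chevG2.Idx) f) := by
    conv_lhs => rw [ChevalleyDatum.group]
    rw [Subgroup.closure_le]
    rintro x ⟨r, t, hx⟩
    refine Subgroup.subset_closure ⟨r, f t, ?_⟩
    rw [← map_xMat f r t, ← hx]
    rfl
  exact hle hg

theorem map_phi {F E : Type*} [Field F] [Field E] (f : F →+* E)
    (g : SpecialLinearGroup (Fin 3) F) :
    Matrix.GeneralLinearGroup.map f (phi F g) = phi E (SpecialLinearGroup.map f g) := by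
  refine Units.ext ?_
  show (phiMat g.1 g⁻¹.1).map f = phiMat (SpecialLinearGroup.map f g).1 (SpecialLinearGroup.map f g)⁻¹.1
  rw [phiMat_map, ← map_inv (SpecialLinearGroup.map f) g]
  rfl

theorem mem_range_of_pow_card {F K : Type*} [Field F] [Fintype F] [Field K] [Algebra F K] {x : K}
    (h : x ^ Fintype.card F = x) : ∃ y : F, algebraMap F K y = x := by
  classical
  have h1 : 1 < Fintype.card F := Fintype.one_lt_card
  set P : Polynomial K := Polynomial.X ^ Fintype.card F - Polynomial.X with hP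
  have hdeg : P.natDegree = Fintype.card F := FiniteField.X_pow_card_sub_X_natDegree_eq K h1
  have hP0 : P ≠ 0 := FiniteField.X_pow_card_sub_X_ne_zero K h1
  have hsub : Finset.univ.image (algebraMap F K) ⊆ P.roots.toFinset := by
    intro y hy
    obtain ⟨z, -, rfl⟩ := Finset.mem_image.1 hy
    rw [Multiset.mem_toFinset, Polynomial.mem_roots hP0]
    simp [hP, sub_eq_zero, ← map_pow, FiniteField.pow_card]
  have heq := Finset.eq_of_subset_of_card_le hsub <| by
    rw [Finset.card_image_of_injective _ (algebraMap F K).injective, Finset.card_univ]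
    exact ((Multiset.toFinset_card_le _).trans (Polynomial.card_roots' P)).trans_eq hdeg
  have hx : x ∈ P.roots.toFinset := by
    rw [Multiset.mem_toFinset, Polynomial.mem_roots hP0]
    simp [hP, sub_eq_zero, h]
  rw [← heq] at hx
  obtain ⟨y, -, hy⟩ := Finset.mem_image.1 hx
  exact ⟨y, hy⟩

theorem tHom_entry {K : Type*} [Field K] (c : Fin chevG2.rank → Kˣ) (s : Fin 12) :
    mv (Chev.tHom chevG2 K c) (.inr s) (.inr s) =
      (c ⟨0, by decide⟩ : K) ^ chevG2.cartan 0 s * (c ⟨1, by decide⟩ : K) ^ chevG2.cartan 1 s := by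
  show Matrix.diagonal _ (Sum.inr s) (Sum.inr s) = _
  refine (Matrix.diagonal_apply_eq _ _).trans ?_
  show (∏ k ∈ Finset.range 2, _) = _
  rw [Finset.prod_range_succ, Finset.prod_range_succ, Finset.prod_range_zero, one_mul,
    ]
  rfl

theorem zpow_pair {K : Type*} [Field K] {u v : K} (hu : u ≠ 0) (hv : v ≠ 0) (x y A B A' B' : ℤ) :
    u ^ (x * A + y * B) * v ^ (x * A' + y * B') =
      (u ^ A * v ^ A') ^ x * (u ^ B * v ^ B') ^ y := by
  rw [zpow_add₀ hu, zpow_add₀ hv, mul_zpow, mul_zpow, ← _root_.zpow_mul, ← _root_.zpow_mul,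
    ← _root_.zpow_mul, ← _root_.zpow_mul, mul_comm x A, mul_comm y B, mul_comm x A', mul_comm y B',
    mul_mul_mul_comm]

theorem zpow_triple {K : Type*} [Field K] {u v : K} (hu : u ≠ 0) (hv : v ≠ 0) (A B C A' B' C' : ℤ) :
    u ^ A * v ^ A' * (u ^ B * v ^ B') * (u ^ C * v ^ C') =
      u ^ (A + B + C) * v ^ (A' + B' + C') := by
  simp only [zpow_add₀ hu, zpow_add₀ hv]
  ring

/-- The middle roots `2, 7, 8` span with the two roots `7, 8`. -/
theorem cartan_span : ∀ s : Fin 12, ∃ x y : Fin 7, ∀ k : Fin 2,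
    chevG2.cartan k s = ((x : ℤ) - 3) * chevG2.cartan k 8 + ((y : ℤ) - 3) * chevG2.cartan k 7 := by
  decide +kernel

theorem cartan_short : ∀ k : Fin 2,
    chevG2.cartan k 8 + chevG2.cartan k 7 + chevG2.cartan k 2 = 0 := by
  decide +kernel

theorem tMat_off {K : Type*} [Field K] (c : Fin chevG2.rank → Kˣ) {a b : I} (h : a ≠ b) :
    mv (Chev.tHom chevG2 K c) a b = 0 := by
  show Matrix.diagonal _ a b = _
  exact Matrix.diagonal_apply_ne _ h

/-- Two diagonal elements agreeing on two short roots are equal. -/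
theorem eq_of_entries {K : Type*} [Field K] {g₁ g₂ : GL chevG2.Idx K}
    (h₁ : g₁ ∈ chevG2.diagonalSubgroup K) (h₂ : g₂ ∈ chevG2.diagonalSubgroup K)
    (h8 : mv g₁ (.inr 8) (.inr 8) = mv g₂ (.inr 8) (.inr 8))
    (h7 : mv g₁ (.inr 7) (.inr 7) = mv g₂ (.inr 7) (.inr 7)) :
    g₁ = g₂ := by
  rw [Chev.validG2.diagonalSubgroup_eq_range] at h₁ h₂
  obtain ⟨c, rfl⟩ := h₁
  obtain ⟨d, rfl⟩ := h₂
  erw [tHom_entry, tHom_entry] at h8 h7
  refine mv_inj.1 (Matrix.ext fun a b => ?_)
  by_cases hab : a = b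
  · subst hab
    rcases a with i | s
    · show Matrix.diagonal _ (Sum.inl i) (Sum.inl i) = Matrix.diagonal _ (Sum.inl i) (Sum.inl i)
      exact (Matrix.diagonal_apply_eq _ _).trans (Matrix.diagonal_apply_eq _ _).symm
    · erw [tHom_entry, tHom_entry]
      obtain ⟨x, y, hk⟩ := cartan_span s
      have e0 := hk 0
      have e1 := hk 1
      simp only [Fin.val_zero, Fin.val_one] at e0 e1
      rw [e0, e1]
      rw [zpow_pair (Units.ne_zero _) (Units.ne_zero _),
        zpow_pair (Units.ne_zero _) (Units.ne_zero _)]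
      exact congrArg₂ (fun A B : K => A ^ _ * B ^ _) h8 h7
  · rw [tMat_off c hab, tMat_off d hab]

theorem prod_short {K : Type*} [Field K] {g : GL chevG2.Idx K}
    (h : g ∈ chevG2.diagonalSubgroup K) :
    mv g (.inr 8) (.inr 8) * mv g (.inr 7) (.inr 7) * mv g (.inr 2) (.inr 2) = 1 := by
  rw [Chev.validG2.diagonalSubgroup_eq_range] at h
  obtain ⟨c, rfl⟩ := h
  erw [tHom_entry, tHom_entry, tHom_entry]
  have e0 := cartan_short 0
  have e1 := cartan_short 1
  simp only [Fin.val_zero, Fin.val_one] at e0 e1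
  refine (zpow_triple (Units.ne_zero _) (Units.ne_zero _) _ _ _ _ _ _).trans ?_
  refine (congrArg₂ (fun A B : ℤ => _ ^ A * _ ^ B) e0 e1).trans ?_
  rw [zpow_zero, zpow_zero, one_mul]

variable {F : Type*} [Field F] [Fintype F]

section Centralizer

variable {K : Type*} [Field K] [Algebra F K] (w : I → K) {q : ℕ}

/-- A centralizer of a regular semisimple element has at most `N` elements. -/
theorem card_centralizer_le (hF : Fintype.card F = q) {N : ℕ} (hN : N = q ^ 2 + q + 1)
    (σ : ↥(chevG2.group F)) (Pk : GL chevG2.Idx K) (hP : Pk ∈ chevG2.group K)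
    (hconj : mv (Pk * Matrix.GeneralLinearGroup.map (algebraMap F K) σ.1 * Pk⁻¹) = Matrix.diagonal w)
    (hwinj : ∀ b : I, ∀ s : Fin 12, w b = w (.inr s) → b = .inr s)
    (h87 : w (.inr 8) ^ q = w (.inr 7)) (h72 : w (.inr 7) ^ q = w (.inr 2)) :
    Nat.card (Subgroup.centralizer {σ}) ≤ N := by
  classical
  haveI : NeZero N := ⟨by omega⟩
  let mp : GL chevG2.Idx F →* GL chevG2.Idx K := Matrix.GeneralLinearGroup.map (algebraMap F K)
  change mv (Pk * mp σ.1 * Pk⁻¹) = _ at hconj
  have hmp : Function.Injective mp := fun x y h =>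
    Units.ext (Matrix.map_injective (algebraMap F K).injective (congrArg Units.val h))
  set T : ↥(Subgroup.centralizer {σ}) → GL chevG2.Idx K := fun g => Pk * mp g.1.1 * Pk⁻¹ with hT
  have hS := Chev.rules_of_mem (D := chevG2) K (by simp)
  obtain ⟨len, hR⟩ := hS.root
  have hent : ∀ g b c, w b ≠ w c → mv (T g) b c = 0 := by
    intro g b c hbc
    have hc : Commute g.1.1 σ.1 :=
      congrArg Subtype.val (Subgroup.mem_centralizer_singleton_iff.1 g.2)
    have h := congrArg mv ((Commute.map hc mp).conj Pk).eq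
    rw [mv_mul, mv_mul _ (Pk * mp g.1.1 * Pk⁻¹), hconj] at h
    have h' := congrFun (congrFun h b) c
    rw [Matrix.mul_diagonal, Matrix.diagonal_mul, mul_comm] at h'
    by_contra hne
    exact hbc (mul_right_cancel₀ hne h').symm
  have hcol : ∀ (g : GL chevG2.Idx K) (c : I), ∃ b, mv g b c ≠ 0 := by
    intro g c
    by_contra hz
    push Not at hz
    have := congrFun (congrFun (mv_inv_mul g) c) c
    rw [Matrix.one_apply_eq, Matrix.mul_apply,
      Finset.sum_eq_zero fun b _ => by rw [hz b, mul_zero]] at this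
    exact zero_ne_one this
  have hdiag : ∀ g, T g ∈ chevG2.diagonalSubgroup K := by
    intro g
    rw [ChevGrp.diagonalSubgroup_eq hS hR]
    refine mem_Hbar_of_root_diag (ChevGrp.glSys hS) hS hR ?_
      (fun b s hb => hent g b (.inr s) fun e => hb (hwinj b s e)) fun s h0 => ?_
    · rw [← ChevGrp.group_eq hS]
      exact mul_mem (mul_mem hP (map_mem_group _ g.1.2)) (inv_mem hP)
    · obtain ⟨b, hb⟩ := hcol (T g) (.inr s)
      rcases eq_or_ne b (Sum.inr s) with rfl | hne
      · exact hb h0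
      · exact hb (hent g b (.inr s) fun e => hne (hwinj b s e))
  -- the twist by the Frobenius map
  set φ : K →ₐ[F] K := FiniteField.frobeniusAlgHom F K with hφ
  have hφa : ∀ x : K, φ x = x ^ q := fun x => by simp [hφ, hF]
  let fr : GL chevG2.Idx K →* GL chevG2.Idx K := Matrix.GeneralLinearGroup.map (φ : K →+* K)
  set Qk := fr Pk * Pk⁻¹ with hQk
  have hfr : ∀ x : GL chevG2.Idx F, fr (mp x) = mp x := fun x => Units.ext (by
    ext i j; exact φ.commutes _)
  have htw : ∀ x : GL chevG2.Idx F, fr (Pk * mp x * Pk⁻¹) * Qk = Qk * (Pk * mp x * Pk⁻¹) := by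
    intro x
    rw [map_mul, map_mul, hfr, map_inv, hQk]
    group
  have hmfr : ∀ (x : GL chevG2.Idx K) (b c : I), mv (fr x) b c = mv x b c ^ q := fun x b c => hφa _
  have hstep : ∀ g, ∀ s s' : Fin 12, w (.inr s') ^ q = w (.inr s) →
      mv (T g) (.inr s') (.inr s') ^ q = mv (T g) (.inr s) (.inr s) := by
    intro g s s' hss
    obtain ⟨b, hb⟩ := hcol Qk (.inr s)
    have hfd : mv (fr (Pk * mp σ.1 * Pk⁻¹)) = Matrix.diagonal fun b => w b ^ q := by
      refine Matrix.ext fun x y => ?_
      rw [hmfr, hconj]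
      rcases eq_or_ne x y with rfl | hxy
      · simp
      · simp [hxy, ← hφa]
    have h := congrFun (congrFun (congrArg mv (htw σ.1)) b) (Sum.inr s)
    rw [mv_mul, mv_mul Qk (Pk * mp σ.1 * Pk⁻¹), hfd, hconj, Matrix.diagonal_mul,
      Matrix.mul_diagonal, mul_comm] at h
    have hbw := (mul_left_cancel₀ hb h).trans hss.symm
    rw [← hφa, ← hφa] at hbw
    obtain rfl := hwinj b s' (φ.toRingHom.injective hbw)
    have h' := congrFun (congrFun (congrArg mv (htw g.1.1)) (Sum.inr s')) (Sum.inr s)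
    rw [mv_mul, mv_mul Qk (Pk * mp g.1.1 * Pk⁻¹), Matrix.mul_apply, Matrix.mul_apply] at h'
    rw [Finset.sum_eq_single (Sum.inr s'), Finset.sum_eq_single (Sum.inr s), hmfr,
      mul_comm (mv Qk _ _)] at h'
    · exact mul_right_cancel₀ hb h'
    · intro c _ hc
      rw [hent g c (.inr s) fun e => hc (hwinj c s e), mul_zero]
    · simp
    · intro c _ hc
      rw [hmfr, hent g (.inr s') c fun e => hc (hwinj c s' e.symm),
        zero_pow (hF ▸ Fintype.card_ne_zero), zero_mul]
    · simp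
  have hroot : ∀ g, mv (T g) (.inr 8) (.inr 8) ^ N = 1 := by
    intro g
    have := prod_short (hdiag g)
    rw [← hstep g 2 7 h72, ← hstep g 7 8 h87] at this
    calc mv (T g) (.inr 8) (.inr 8) ^ N
        = mv (T g) (.inr 8) (.inr 8) * mv (T g) (.inr 8) (.inr 8) ^ q *
            (mv (T g) (.inr 8) (.inr 8) ^ q) ^ q := by rw [hN]; ring
      _ = 1 := this
  let Φ : ↥(Subgroup.centralizer {σ}) → rootsOfUnity N K := fun g =>
    rootsOfUnity.mkOfPowEq (mv (T g) (.inr 8) (.inr 8)) (hroot g)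
  have hΦ : Function.Injective Φ := by
    intro g g' hgg
    have h8 : mv (T g) (.inr 8) (.inr 8) = mv (T g') (.inr 8) (.inr 8) := by
      have := congrArg (fun x : rootsOfUnity N K => ((x : Kˣ) : K)) hgg
      simpa [Φ] using this
    have h7 : mv (T g) (.inr 7) (.inr 7) = mv (T g') (.inr 7) (.inr 7) := by
      rw [← hstep g 7 8 h87, ← hstep g' 7 8 h87, h8]
    have := eq_of_entries (hdiag g) (hdiag g') h8 h7
    exact Subtype.ext (Subtype.ext (hmp (mul_left_cancel (mul_right_cancel this))))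
  refine (Nat.card_le_card_of_injective Φ hΦ).trans ?_
  exact card_rootsOfUnity K N

end Centralizer

/-- The numbers attached to a root of unity of order `q² + q + 1`. -/
theorem weight_eq {K : Type*} [Field K] {a : K} {q : ℕ} (hq : 3 ≤ q)
    (haN : a ^ (q ^ 2 + q + 1) = 1) (s : Fin 12) :
    wt ![a, a ^ q, a ^ q ^ 2] ![a ^ (q ^ 2 + q), a ^ (q ^ 2 + 1), a ^ (q + 1)] (.inr s) =
      a ^ rexp q s := by
  have hm : ∀ i j : ℕ, i = j + (q ^ 2 + q + 1) → a ^ i = a ^ j := fun i j h => by
    rw [h, pow_add, haN, mul_one]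
  have h2 : 3 * q ≤ q ^ 2 := by nlinarith
  fin_cases s <;> simp [wt, kind, rexp, ← pow_add, ← pow_succ']
  all_goals first
    | rfl
    | (congr 1; omega)
    | (refine hm _ _ ?_; omega)

set_option maxHeartbeats 1000000 in
/-- `G₂(q)` has a self-centralizing cyclic subgroup of order `q² + q + 1`. -/
theorem exists_singer {q : ℕ} (hF : Fintype.card F = q) (hq : 3 ≤ q) :
    ∃ H : Subgroup ↥(chevG2.group F), IsCyclic ↥H ∧ Nat.card ↥H = q ^ 2 + q + 1 ∧
      Subgroup.centralizer (H : Set ↥(chevG2.group F)) = H := by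
  classical
  let K := AlgebraicClosure F
  set f := algebraMap F K with hf
  set N := q ^ 2 + q + 1 with hN
  have h2 : 3 * q ≤ q ^ 2 := by nlinarith
  have hq0 : (q : K) = 0 := by
    have : (Fintype.card F : F) = 0 := by simp
    rw [← hF, ← map_natCast f, this, map_zero]
  have : NeZero (N : K) := ⟨by simp [hN, hq0]⟩
  have : NeZero N := ⟨by omega⟩
  obtain ⟨a, ha⟩ : ∃ a : K, IsPrimitiveRoot a N := HasEnoughRootsOfUnity.exists_primitiveRoot K N
  have haN : a ^ N = 1 := ha.pow_eq_one
  have hpow : ∀ {i j : ℕ}, i < N → j < N → a ^ i = a ^ j → i = j :=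
    fun {i j} hi hj h => ha.pow_inj hi hj h
  set φ : K →ₐ[F] K := FiniteField.frobeniusAlgHom F K with hφ
  have hφa : ∀ x : K, φ x = x ^ q := fun x => by simp [hφ, hF]
  have hq3 : a ^ q ^ 3 = a := by
    obtain ⟨m, rfl⟩ : ∃ m, q = m + 1 := ⟨q - 1, by omega⟩
    rw [show (m + 1) ^ 3 = m * ((m + 1) ^ 2 + (m + 1) + 1) + 1 by ring, pow_succ, mul_comm m,
      pow_mul, haN, one_pow, one_mul]
  set e : Fin 3 → K := ![a, a ^ q, a ^ q ^ 2] with he
  set e' : Fin 3 → K := ![a ^ (q ^ 2 + q), a ^ (q ^ 2 + 1), a ^ (q + 1)] with he'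
  have hee : ∀ i, e i * e' i = 1 := by
    intro i
    fin_cases i <;> simp [he, he', ← pow_add, ← pow_succ'] <;> rw [← haN, hN] <;> congr 1 <;> ring
  -- the element over the ground field
  set s1 : K := e 0 + e 1 + e 2 with hs1
  set s2 : K := e 0 * e 1 + e 0 * e 2 + e 1 * e 2 with hs2
  have hφe : φ (e 0) = e 1 ∧ φ (e 1) = e 2 ∧ φ (e 2) = e 0 := by
    simp [he, hφa, ← pow_mul, ← pow_two, ← pow_succ, hq3]
  obtain ⟨t1, ht1⟩ := mem_range_of_pow_card (F := F) (x := s1) (by
    rw [hF, ← hφa, hs1, map_add, map_add, hφe.1, hφe.2.1, hφe.2.2]; ring)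
  obtain ⟨t2, ht2⟩ := mem_range_of_pow_card (F := F) (x := s2) (by
    rw [hF, ← hφa, hs2, map_add, map_add, map_mul, map_mul, map_mul, hφe.1, hφe.2.1, hφe.2.2]
    ring)
  let M : SpecialLinearGroup (Fin 3) F :=
    ⟨!![0, 0, 1; 1, 0, -t2; 0, 1, t1], by simp [Matrix.det_fin_three]⟩
  have hprod : e 0 * e 1 * e 2 = 1 := by
    simp [he, ← pow_succ', ← pow_add]
    rw [← haN, hN]; congr 1; ring
  have h01 : a ≠ a ^ q := fun h => by
    have := hpow (i := 1) (j := q) (by omega) (by omega) (by rwa [pow_one]); omega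
  have h02 : a ≠ a ^ q ^ 2 := fun h => by
    have := hpow (i := 1) (j := q ^ 2) (by omega) (by omega) (by rwa [pow_one]); omega
  have h12 : a ^ q ≠ a ^ q ^ 2 := fun h => by
    have := hpow (i := q) (j := q ^ 2) (by omega) (by omega) h; omega
  set Δ : K := (e 1 - e 0) * (e 2 - e 0) * (e 2 - e 1) with hΔ
  have hΔ0 : Δ ≠ 0 := by
    simp [hΔ, he, sub_eq_zero, h01.symm, h02.symm, h12.symm]
  let P : SpecialLinearGroup (Fin 3) K :=
    ⟨!![Δ⁻¹, Δ⁻¹ * e 0, Δ⁻¹ * e 0 ^ 2; 1, e 1, e 1 ^ 2; 1, e 2, e 2 ^ 2], by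
      rw [Matrix.det_fin_three]
      refine Eq.trans ?_ (inv_mul_cancel₀ hΔ0)
      generalize Δ⁻¹ = u
      rw [hΔ]
      simp
      ring⟩
  let Dg : SpecialLinearGroup (Fin 3) K :=
    ⟨Matrix.diagonal e, by rw [Matrix.det_diagonal, Fin.prod_univ_three]; exact hprod⟩
  have hroot : ∀ x : K, (x - e 0) * (x - e 1) * (x - e 2) = x ^ 3 - s1 * x ^ 2 + s2 * x - 1 := by
    intro x; rw [← hprod, hs1, hs2]; ring
  have hPM : P * SpecialLinearGroup.map f M = Dg * P := by
    apply Subtype.ext
    show _ * (!![0, 0, 1; 1, 0, -t2; 0, 1, t1]).map f = Matrix.diagonal e * _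
    ext i j
    rw [Matrix.diagonal_mul, Matrix.mul_apply, Fin.sum_univ_three]
    have r0 := hroot (e 0); have r1 := hroot (e 1); have r2 := hroot (e 2)
    simp only [sub_self, zero_mul, mul_zero] at r0 r1 r2
    fin_cases i <;> fin_cases j <;> simp [P, hf, ht1, ht2] <;>
      first
        | ring1
        | linear_combination Δ⁻¹ * r0
        | linear_combination r1
        | linear_combination r2
  set w : I → K := wt e e' with hw
  have hwR : ∀ s : Fin 12, w (.inr s) = a ^ rexp q s := fun s => weight_eq hq haN s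
  have hdd : mv (phi K Dg) = Matrix.diagonal w := by
    rw [hw, ← phiMat_diagonal e e' hee]
    show phiMat Dg.1 Dg⁻¹.1 = _
    congr 1
    have : Dg.1 * Matrix.diagonal e' = 1 := by
      show Matrix.diagonal e * _ = _
      rw [Matrix.diagonal_mul_diagonal, funext hee, Matrix.diagonal_one]
    calc Dg⁻¹.1 = Dg⁻¹.1 * (Dg.1 * Matrix.diagonal e') := by rw [this, mul_one]
      _ = _ := by rw [← mul_assoc, ← Linear.val_mul, inv_mul_cancel]; exact one_mul _
  set Pk := phi K P with hPk
  let mp : GL chevG2.Idx F →* GL chevG2.Idx K := Matrix.GeneralLinearGroup.map f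
  have hmp : Function.Injective mp := fun x y h =>
    Units.ext (Matrix.map_injective f.injective (congrArg Units.val h))
  have hconj : Pk * mp (phi F M) * Pk⁻¹ = phi K Dg := by
    rw [map_phi, hPk, ← map_mul, ← map_inv, ← map_mul, hPM, mul_inv_cancel_right]
  set σ : ↥(chevG2.group F) := ⟨phi F M, phi_mem_group M⟩ with hσ
  have hpowD : ∀ n : ℕ, σ ^ n = 1 ↔ (Matrix.diagonal w) ^ n = 1 := by
    intro n
    rw [← hdd, ← mv_pow, ← mv_one, mv_inj, ← hconj, conj_pow, conj_eq_one_iff, ← map_pow,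
      map_eq_one_iff mp hmp, ← Subtype.coe_inj]
    exact Iff.rfl
  have hord : orderOf σ = N := by
    rw [orderOf_eq_iff (by omega)]
    refine ⟨(hpowD N).2 ?_, fun m hm hm0 hh => ?_⟩
    · rw [Matrix.diagonal_pow, ← Matrix.diagonal_one]
      congr 1
      funext b
      rcases b with i | s
      · simp [hw, wt]
      · rw [Pi.pow_apply, hwR, ← pow_mul, mul_comm, pow_mul, haN, one_pow]
    · have h8 := congrFun (congrFun ((hpowD m).1 hh) (.inr 8)) (.inr 8)
      rw [Matrix.diagonal_pow, Matrix.diagonal_apply_eq, Pi.pow_apply, hwR,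
        Matrix.one_apply_eq, ← pow_mul] at h8
      simp [rexp] at h8
      exact absurd (hpow hm (by omega) (h8.trans (pow_zero a).symm)) (by omega)
  have hwinj : ∀ b : I, ∀ s : Fin 12, w b = w (.inr s) → b = .inr s := by
    rintro (i | s') s h
    · rw [hwR, show w (.inl i) = a ^ 0 by simp [hw, wt]] at h
      exact absurd (hpow (by omega) (rexp_lt hq s) h).symm (rexp_ne_zero hq s)
    · rw [hwR, hwR] at h
      rw [rexp_injective hq (hpow (rexp_lt hq s') (rexp_lt hq s) h)]
  have hle := card_centralizer_le w hF hN σ Pk (phi_mem_group P)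
    (by rw [← hdd]; exact congrArg mv hconj) hwinj
    (by rw [hwR, hwR, ← pow_mul]; simp [rexp])
    (by rw [hwR, hwR, ← pow_mul]; simp [rexp, sq])
  refine ⟨Subgroup.zpowers σ, inferInstance, by rw [Nat.card_zpowers, hord], ?_⟩
  rw [Subgroup.zpowers_eq_closure, Subgroup.centralizer_closure, ← Subgroup.zpowers_eq_closure]
  have hfin : Finite ↥(chevG2.group F) := inferInstance
  refine (Subgroup.eq_of_le_of_card_ge (Subgroup.zpowers_le.2 ?_) ?_).symm
  · exact Subgroup.mem_centralizer_singleton_iff.2 rfl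
  · rw [Nat.card_zpowers, hord]; exact hle

end Cfsg.Agent.G2Singer
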